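import Cfsg.Agent.SzI.E

/-! The second class of involutions is not fused to the central one. -/

set_option autoImplicit false
set_option linter.unusedSectionVars false

namespace Cfsg.Agent.SzI

open Cfsg Subgroup LocalEven Fischer PLocal Orth QuadraticMap Module

variable {G : Type*} [Group G] [Finite G] {Q R : Subgroup G} {z s : G} {χ : G → V}

namespace CO
variable (h : CO Q z χ) (p : Pr Q R z s) (hs : χ s = ee) {g a1 b1 : G} (hg : g * z * g⁻¹ = s)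
  (ha1 : a1 ∈ Q) (hv1 : χ a1 = v1) (hb1 : b1 ∈ R) (k1 : Act Q z χ b1 (eich q ee w1))
include h p hs ha1 hv1 hb1 k1

theorem t_sq : a1 * b1 * (a1 * b1) = 1 := by
  have hw : polar q (χ s) w1 = 0 := hs ▸ tab.2.2.1
  have h1 : a1 * a1 = z := (h.sq a1 ha1).resolve_left (by rw [h.sq' a1 ha1, hv1, qv1]; decide)
  have h2 : b1 * b1 = s := (p.r.sq b1 hb1).resolve_left (by
    rw [h.sq_B p hb1 hw (hs ▸ k1), qw1]; decide)
  rcases h.conj_B p ha1 ((h.com p.hs ha1).2 (by rw [hs, hv1, tab.2.2.2.1])).symm hb1 hw (hs ▸ k1)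
    with ⟨e, -⟩ | ⟨-, e⟩
  · rw [hv1, tab.2.2.2.2.2.2.2.2.2] at e; exact absurd e (by decide)
  · rw [mul_assoc, ← mul_assoc b1, e, show a1 * (a1 * (z * s) * b1 * b1) =
      a1 * a1 * z * (s * (b1 * b1)) by group, h1, h2, h.zsq, p.r.zsq, one_mul]

theorem com_b {a : G} (ha : a ∈ Q) (h1 : polar q ee (χ a) = 0) (h2 : polar q w1 (χ a) = 0) :
    Commute a b1 := by
  rcases h.conj_B p ha ((h.com p.hs ha).2 (hs ▸ h1)).symm hb1 (hs ▸ tab.2.2.1) (hs ▸ k1)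
    with ⟨-, e⟩ | ⟨e, -⟩
  · exact e.symm
  · rw [h2] at e; exact absurd e (by decide)

theorem com_t {a : G} (ha : a ∈ Q) (h1 : polar q ee (χ a) = 0) (h2 : polar q w1 (χ a) = 0)
    (h3 : polar q v1 (χ a) = 0) : Commute a (a1 * b1) :=
  ((h.com ha1 ha).2 (hv1 ▸ h3)).symm.mul_right (h.com_b p hs ha1 hv1 hb1 k1 ha h1 h2)

theorem key {T : Subgroup G} (l : LS T (a1 * b1)) (hz : z ∉ T) {r : G} (hr : r ∈ T)
    (rz : Commute r z) : ∃ w, polar q ee w = 0 ∧ Act Q z χ r (eich q ee w) := by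
  obtain ⟨t1, t2, t3, t4, t5, t6, t7, t8, t9, t10⟩ := tab
  have kt := h.mulQ ha1 k1
  have ct := @com_t G _ _ Q R z s χ h p hs a1 b1 ha1 hv1 hb1 k1
  obtain ⟨x1, hx1, e1⟩ := h.surj p1
  obtain ⟨x2, hx2, e2⟩ := h.surj p2
  have c0 := ct p.hs (by rw [hs, pvv]) (by rw [hs, polar_comm, t3]) (by rw [hs, polar_comm, t4])
  have c1 := ct hx1 (by rw [e1, t1]) (by rw [e1, polar_comm, t6]) (by rw [e1, polar_comm, t7])
  have c2 := ct hx2 (by rw [e2, t2]) (by rw [e2, polar_comm, t8]) (by rw [e2, polar_comm, t9])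
  have hD : ∀ d ∈ Q, d ∈ T → ∃ c : ZMod 2, χ d = c • ee := fun d hd hd' => by
    have u : ∀ a ∈ Q, Commute a (a1 * b1) → polar q (χ a) (χ d) = 0 := fun a ha e => by
      rw [← h.com ha hd]
      by_contra hn
      have := l.norm a e d hd'
      rw [h.toES.conj_eq ha hd hn] at this
      exact hz (by simpa using mul_mem (inv_mem hd') this)
    have u0 := u s p.hs c0
    have u1 := u x1 hx1 c1
    have u2 := u x2 hx2 c2
    rw [hs] at u0; rw [e1] at u1; rw [e2] at u2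
    have u3 : polar q w1 (χ d) = 0 := by
      have := kt.2 d hd
      rw [Inv.commute_iff_conj.1 (l.central d hd'), eich_ap qee t3, u0, zero_smul, add_zero, mul_zero,
        sub_zero, left_eq_add] at this
      exact (smul_eq_zero.1 this).resolve_right ee0
    have u4 : polar q v1 (χ d) = 0 := by
      rw [← hv1, ← h.com ha1 hd]
      simpa using (l.central d hd').mul_left (h.com_b p hs ha1 hv1 hb1 k1 hd u0 u3).symm.inv_left
    have := decomp u0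
    rw [u1, u2, u3, u4] at this
    exact ⟨_, by simpa using this⟩
  obtain ⟨σ, hσ, k⟩ := h.ex r rz
  have hA : ∀ a ∈ Q, Commute a (a1 * b1) → ∃ c : ZMod 2, σ.1 (χ a) = χ a + c • ee :=
    fun a ha e => by
      obtain ⟨c, hc⟩ := hD _ (mul_mem (inv_mem ha) (h.norm r rz a ha)) (by
        simpa [mul_assoc] using mul_mem (l.norm _ e.inv_left r hr) (inv_mem hr))
      rw [h.mul _ (inv_mem ha) _ (h.norm r rz a ha), h.inv ha, k.2 a ha] at hc
      exact ⟨c, by rw [← hc, ← add_assoc, vv, zero_add]⟩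
  obtain ⟨c, f0⟩ := hA s p.hs c0
  obtain ⟨_, f1⟩ := hA x1 hx1 c1
  obtain ⟨_, f2⟩ := hA x2 hx2 c2
  rw [hs] at f0; rw [e1] at f1; rw [e2] at f2
  replace f0 : σ.1 ee = ee := by
    rcases z01 c with rfl | rfl
    · simpa using f0
    · rw [one_smul, vv, OG.apply_eq_zero] at f0; exact absurd f0 ee0
  have f3 := k.conj h.toLS kt
  rw [Inv.commute_iff_conj.1 (l.central r hr).symm, eich_conj, f0] at f3
  have f4 : polar q ee (σ.1 w1) = 0 := by rw [← f0, OG.map_polar, t3]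
  have f5 := eich_mul qee f4 t3
  rw [h.uniq f3 kt, eich_sq qee t3, eq_comm, Classical.AutO.eich_eq_one_iff nd ee0 qee
    (by rw [polar_add_right, f4, t3, add_zero])] at f5
  obtain ⟨d, f6⟩ := Submodule.mem_span_singleton.1 f5
  obtain ⟨w, f7, rfl⟩ := orth_key hσ f0 f1 f2 (c := d) (by
    rw [f6, add_comm (σ.1 w1), ← add_assoc, vv, zero_add])
  exact ⟨w, f7, k⟩

include hg in
theorem nconj : ¬ IsConj z (a1 * b1) := by
  intro hc
  obtain ⟨k, hk⟩ := isConj_iff.1 hc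
  have kt := h.mulQ ha1 k1
  have ne := eich_ne (.inr rfl) tab.2.2.1
  have tQ : a1 * b1 ∉ Q := fun e => ne (h.uniq kt (h.act_one.2 e))
  rcases h.cls p hs hg ha1 hv1 hb1 k1 (x := k⁻¹ * z * k)
    (by have := (commute_cj_iff k z z).1 (hk ▸ kt.1); exact this.symm)
    (by simp [mul_assoc, ← mul_assoc z, h.zsq]) with ⟨m, h1, h2⟩ | ⟨m, h1, h2⟩
  · have h3 : k * m * z * (k * m)⁻¹ ∈ Q := by
      rw [← mem_cj_inv]
      apply h.toLS.symm
      simpa [mul_assoc] using mem_cj.1 h2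
    have h4 : a1 * b1 ∈ cj (k * m) Q := by
      rw [← hk, mem_cj]
      simpa [mul_assoc] using mem_cj.1 (h.toLS.symm h1)
    by_cases h5 : k * m * z * (k * m)⁻¹ = z
    · rw [h.toLS.cj_eq (k := 1) (by simpa using h5), cj_one] at h4
      exact tQ h4
    · have p' := pr_of h.toLS h3 h5
      obtain ⟨w, h6, h7⟩ := h.act_B p' h4 kt.1
      have h8 := (sing_eich (h.e0 p') (h.qe p') h6).2
        ((h.sq_B p' h4 h6 h7).1 (h.t_sq p hs ha1 hv1 hb1 k1))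
      rw [h.uniq h7 kt, sing_eich ee0 qee tab.2.2.1, qw1] at h8
      exact absurd h8 (by decide)
  · have h3 : k * m * z * (k * m)⁻¹ = a1 * b1 := by
      rw [← hk, show k * m * z * (k * m)⁻¹ = k * (m * z * m⁻¹) * k⁻¹ by group,
        Inv.commute_iff_conj.1 h1]
    have h4 : k * m * (a1 * b1) * (k * m)⁻¹ = z := by
      rw [show k * m * (a1 * b1) * (k * m)⁻¹ = k * (m * (a1 * b1) * m⁻¹) * k⁻¹ by group, h2]; group
    generalize k * m = n at h3 h4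
    have l := h3 ▸ h.toLS.cj n
    have hz : z ∉ cj n Q := fun e => tQ (by
      rw [mem_cj, ← h4] at e; simpa [mul_assoc] using e)
    obtain ⟨t1, t2, t3, t4, t5, t6, t7, t8, t9, t10⟩ := tab
    have ct := @com_t G _ _ Q R z s χ h p hs a1 b1 ha1 hv1 hb1 k1
    obtain ⟨x1, hx1, e1⟩ := h.surj p1
    obtain ⟨x2, hx2, e2⟩ := h.surj p2
    have c1 := ct hx1 (by rw [e1, t1]) (by rw [e1, polar_comm, t6]) (by rw [e1, polar_comm, t7])
    have c2 := ct hx2 (by rw [e2, t2]) (by rw [e2, polar_comm, t8]) (by rw [e2, polar_comm, t9])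
    have u : ∀ x, Commute x (a1 * b1) → Commute (n * x * n⁻¹) z := fun x e => by
      rw [commute_cj_iff, ← h4]; simpa [mul_assoc] using e
    obtain ⟨y1, f1, g1⟩ := h.key p hs ha1 hv1 hb1 k1 l hz (conj_mem_cj hx1) (u _ c1)
    obtain ⟨y2, f2, g2⟩ := h.key p hs ha1 hv1 hb1 k1 l hz (conj_mem_cj hx2) (u _ c2)
    have e := h.toES.conj_eq hx1 hx2 (by rw [h.com hx1 hx2, e1, e2, t5]; decide)
    have g3 := g1.conj h.toLS g2
    rw [show n * x1 * n⁻¹ * (n * x2 * n⁻¹) * (n * x1 * n⁻¹)⁻¹ = n * (x1 * x2 * x1⁻¹) * n⁻¹ by group,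
      e, show n * (x2 * z) * n⁻¹ = n * x2 * n⁻¹ * (n * z * n⁻¹) by group, h3,
      eich_comm qee f1 f2, mul_inv_cancel_right] at g3
    exact ne (mul_eq_left.1 (h.uniq (g2.mul h.toLS kt) g3))

end CO

theorem main (h : LS Q z) (hc : Nat.card Q = 2 ^ 7)
    (hi : (Q.subgroupOf (centralizer ({z} : Set G))).index = 25920) {g : G}
    (h1 : g * z * g⁻¹ ∈ Q) (h2 : g * z * g⁻¹ ≠ z) : ∃ a b : G, orderOf a = 2 ∧ orderOf b = 2 ∧
      ¬ IsConj a b ∧ ∀ x : G, orderOf x = 2 → IsConj x a ∨ IsConj x b := by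
  have : Fact (Nat.Prime 2) := ⟨Nat.prime_two⟩
  obtain ⟨χ, h⟩ := exists_co h hc hi
  have p0 := pr_of h.toLS h1 h2
  have all : ∀ x ∈ Q, x ≠ 1 → x * x = 1 → ∃ k, k * z * k⁻¹ = x := fun x hx x1 x2 => by
    by_cases xz : x = z
    · exact ⟨1, by simp [xz]⟩
    obtain ⟨k, -, e⟩ := h.conj_invol h1 hx p0.r.ne h2 p0.r.zsq x1 xz x2
    exact ⟨k * g, by rw [← e]; group⟩
  obtain ⟨s, hs, e⟩ := h.surj ee
  have h3 := mt (h.zero s hs).2 (e ▸ ee0)
  obtain ⟨k, rfl⟩ := all s hs (fun e => h3 (.inl e)) ((h.sq' s hs).2 (e ▸ qee))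
  have p := pr_of h.toLS hs fun e => h3 (.inr e)
  obtain ⟨a1, ha1, hv1⟩ := h.surj v1
  obtain ⟨b1, hb1, k1⟩ := h.exists_B p (w := w1) (e ▸ tab.2.2.1)
  rw [e] at k1
  have t1 : a1 * b1 ≠ 1 := fun e' => eich_ne (.inr rfl) tab.2.2.1
    (h.uniq (h.mulQ ha1 k1) (e' ▸ h.act_one.2 (one_mem _)))
  refine ⟨z, a1 * b1, h.toES.orderOf, orderOf_eq_prime (by rw [pow_two, h.t_sq p e ha1 hv1 hb1 k1]) t1,
    h.nconj p e rfl ha1 hv1 hb1 k1, fun x hx => ?_⟩
  have x2 : x * x = 1 := by rw [← pow_two, ← hx, pow_orderOf_eq_one]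
  have x1 : x ≠ 1 := fun e => by simp [e] at hx
  obtain ⟨n, hn⟩ := exists_cent h.toLS x2
  rcases h.cls p e rfl ha1 hv1 hb1 k1 hn (by simp [mul_assoc, ← mul_assoc x, x2]) with
    ⟨m, -, h4⟩ | ⟨m, -, h4⟩
  · obtain ⟨l, h5⟩ := all _ (mem_cj.1 h4) (fun e => x1 (by
        rw [show x = n⁻¹ * m * (m⁻¹ * (n * x * n⁻¹) * m) * (n⁻¹ * m)⁻¹ by group, e]; group)) (by
        rw [show m⁻¹ * (n * x * n⁻¹) * m * (m⁻¹ * (n * x * n⁻¹) * m) =
          m⁻¹ * n * (x * x) * n⁻¹ * m by group, x2]; group)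
    refine .inl (isConj_iff.2 ⟨l⁻¹ * m⁻¹ * n, ?_⟩)
    rw [show l⁻¹ * m⁻¹ * n * x * (l⁻¹ * m⁻¹ * n)⁻¹ = l⁻¹ * (m⁻¹ * (n * x * n⁻¹) * m) * l by group,
      ← h5]
    group
  · refine .inr (isConj_iff.2 ⟨m⁻¹ * n, ?_⟩)
    rw [show m⁻¹ * n * x * (m⁻¹ * n)⁻¹ = m⁻¹ * (n * x * n⁻¹) * m by group, ← h4]
    group

end Cfsg.Agent.SzI
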