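import Mathlib
import Cfsg.Agent.PLocal.LX2
import Cfsg.Agent.Orth.Inv2
import Cfsg.Agent.PGrp.Extra2
import Cfsg.Agent.Classical.AutO

/-! Coordinates on `Q / ⟨z⟩` for an involution centralizer `2^{1+6}.Ω₆⁻(2)`. -/

set_option autoImplicit false
set_option linter.unusedSectionVars false

namespace Cfsg.Agent.SzI

open Cfsg Subgroup LocalEven Fischer PLocal Orth QuadraticMap Module

abbrev V : Type := (Fin 2 ⊕ Fin 2) ⊕ Fin 2 → ZMod 2
abbrev q : QuadraticForm (ZMod 2) V := minusQ 2 (ZMod 2) 1 1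
abbrev Om : Subgroup (OG q) := _root_.commutator (OG q)

theorem nd : ND q := nd_minusQ 2 (by decide)
theorem dim : finrank (ZMod 2) V = 6 := by simp
theorem good : Good (ZMod 2) V := good_of_five_le (by rw [dim]; norm_num)
theorem two0 : (2 : ZMod 2) = 0 := rfl
theorem dk : DickKer q := nd.dickKer_of_good two0 good
theorem z01 : ∀ c : ZMod 2, c = 0 ∨ c = 1 := by decide
theorem vv (v : V) : v + v = 0 := by
  rw [← two_smul (ZMod 2) v, two0, zero_smul]
theorem card_OG : Nat.card (OG q) = 51840 := by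
  rw [card_OG_minusQ 2 PGrp.aniso_two]; simp [Finset.prod_range_succ]
theorem index_Om : Om.index = 2 := nd.index_commutator_even good two0 (by rw [dim]; norm_num)
theorem card_Om : Nat.card Om = 25920 := by
  have := card_mul_index Om
  rw [index_Om, card_OG] at this
  omega

variable {G : Type*} [Group G] [Finite G] {Q : Subgroup G} {z : G}

theorem es_sq_mul (h : ES Q z) {x y : G} (hx : x ∈ Q) (hy : y ∈ Q) :
    x * y * (x * y) = 1 ↔ ((x * x = 1 ↔ y * y = 1) ↔ Commute x y) := by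
  have hz := h.ne
  have e : x * y * (x * y) = (x * y * x⁻¹) * (x * x) * y := by group
  have zy : z * y = y * z := (h.central y hy).eq
  by_cases hc : Commute x y
  · rw [e, Inv.commute_iff_conj.1 hc]
    rcases h.sq x hx with a | a <;> rcases h.sq y hy with b | b
    · simp [a, b, hc]
    · simp [a, b, hc, hz]
    · rw [a, mul_assoc, zy, ← mul_assoc, b]; simp [hc, hz]
    · rw [a, mul_assoc, zy, ← mul_assoc, b, h.zsq]; simp [hc]
  · rw [e, h.conj_eq hx hy hc]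
    rcases h.sq x hx with a | a <;> rcases h.sq y hy with b | b
    · rw [a, mul_one, mul_assoc, zy, ← mul_assoc, b]; simp [hc, hz]
    · rw [a, mul_one, mul_assoc, zy, ← mul_assoc, b, h.zsq]; simp [hc, hz]
    · rw [a, mul_assoc y z z, h.zsq, mul_one, b]; simp [hc, hz]
    · rw [a, mul_assoc y z z, h.zsq, mul_one, b]; simp [hc, hz]

/-- `g` centralizes `z` and acts on `Q / ⟨z⟩` as `σ` -/
def Act (Q : Subgroup G) (z : G) (χ : G → V) (g : G) (σ : OG q) : Prop :=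
  Commute g z ∧ ∀ a ∈ Q, χ (g * a * g⁻¹) = σ.1 (χ a)

structure CO (Q : Subgroup G) (z : G) (χ : G → V) : Prop extends LS Q z where
  mul : ∀ a ∈ Q, ∀ b ∈ Q, χ (a * b) = χ a + χ b
  zero : ∀ a ∈ Q, χ a = 0 ↔ a = 1 ∨ a = z
  surj : ∀ v, ∃ a ∈ Q, χ a = v
  sq' : ∀ a ∈ Q, a * a = 1 ↔ q (χ a) = 0
  ex : ∀ g, Commute g z → ∃ σ ∈ Om, Act Q z χ g σ
  lift : ∀ σ ∈ Om, ∃ g, Act Q z χ g σ

theorem exists_rho (h : LS Q z) {W : Type*} [AddCommGroup W] [Module (ZMod 2) W] [Finite W]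
    (D : PGrp.CExt 2 Q W) (hc : center Q = D.Z) {q' : QuadraticForm (ZMod 2) W} (hq : D.Q = q') :
    ∃ ρ : centralizer ({z} : Set G) →* OG q', ρ.ker = Q.subgroupOf _ ∧
      ∀ g : centralizer ({z} : Set G), ∀ a b : Q, g.1 * a * g.1⁻¹ = b → (ρ g).1 (D.χ a) = D.χ b := by
  subst hq
  have hle : centralizer ({z} : Set G) ≤ normalizer (Q : Set G) := fun g hg =>
    h.mem_normalizer (Inv.mem_centralizer_single.1 hg)
  have zero : ∀ a : Q, D.χ a = 0 ↔ a.1 = 1 ∨ a.1 = z := fun a => by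
    rw [← D.mem_Z, ← hc, ← mem_zpowers_two h.zsq, ← h.center_eq]
    exact ⟨fun e => ⟨_, e, rfl⟩, fun ⟨y, e, e'⟩ => (show y = a from Subtype.ext e') ▸ e⟩
  let ρ := (D.autOG hc).comp (Q.normalizerMonoidHom.comp (inclusion hle))
  have act : ∀ g : centralizer ({z} : Set G), ∀ a b : Q, g.1 * a * g.1⁻¹ = b →
      (ρ g).1 (D.χ a) = D.χ b := fun g a b e => by
    refine (D.autOG_χ hc _ a).trans (congrArg _ (Subtype.ext ?_))
    exact e
  refine ⟨ρ, ?_, act⟩
  ext g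
  have hg := Inv.mem_centralizer_single.1 g.2
  rw [MonoidHom.mem_ker, mem_subgroupOf]
  refine ⟨fun e => h.mem_of_trivial hg fun a ha => ?_, fun hq => OG.ext fun v => ?_⟩
  · have h1 := act g ⟨a, ha⟩ ⟨_, h.norm g hg a ha⟩ rfl
    rw [e, OG.one_apply] at h1
    have h2 := (zero ((⟨a, ha⟩ : Q)⁻¹ * ⟨_, h.norm g hg a ha⟩)).1 (by
      rw [D.χ_mul, ← h1, D.χ_inv, neg_add_cancel])
    exact h2.imp (fun e => by simpa using (inv_mul_eq_iff_eq_mul.1 e)) inv_mul_eq_iff_eq_mul.1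
  · obtain ⟨a, rfl⟩ := D.χ_surj v
    rcases h.conj g hq a a.2 with e | e
    · exact act g a a e
    · rw [act g a (a * ⟨z, h.mem⟩) e, D.χ_mul, (zero ⟨z, h.mem⟩).2 (.inr rfl), add_zero]; rfl

theorem exists_co (h : LS Q z) (hc : Nat.card Q = 2 ^ 7)
    (hi : (Q.subgroupOf (centralizer ({z} : Set G))).index = 25920) : ∃ χ, CO Q z χ := by
  classical
  obtain ⟨m, D, hnd, hz, hm⟩ := PGrp.exists_cext_two h.isExtraspecial
  obtain rfl : m = 2 := by
    have := Nat.pow_right_injective le_rfl (hc.symm.trans hm)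
    omega
  have hp : ¬ IsPlus D.Q := fun hp => by
    obtain ⟨e⟩ := hnd.iso_plusQ hp (m := 3) (by simp)
    obtain ⟨ρ, h1, -⟩ := exists_rho h D hz rfl
    have := card_subgroup_dvd_card ρ.range
    rw [← index_ker ρ, h1, hi, ← card_OG_iso e, card_OG_plusQ 2] at this
    simp [Finset.prod_range_succ] at this
  obtain ⟨e⟩ := hnd.iso_minusQ hp (m := 2) (by simp) PGrp.aniso_two
  let D' : PGrp.CExt 2 Q V :=
    { ι := D.ι, χ := fun x => e.symm (D.χ x), ι_add := D.ι_add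
      χ_mul := fun x y => by rw [D.χ_mul, map_add]
      ι_inj := D.ι_inj
      χ_surj := e.symm.toLinearEquiv.surjective.comp D.χ_surj
      χ_eq_zero := fun x => by rw [← D.χ_eq_zero]; exact e.symm.toLinearEquiv.map_eq_zero_iff
      central := D.central }
  have hz' : center Q = D'.Z := by
    ext x; rw [hz, D.mem_Z, D'.mem_Z]; exact e.symm.toLinearEquiv.map_eq_zero_iff.symm
  have hq : D'.Q = q := by
    ext v
    obtain ⟨x, rfl⟩ := D'.χ_surj v
    apply D.ι_inj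
    rw [show D.ι (D'.Q (D'.χ x)) = x ^ 2 from D'.ι_Q x, ← D.ι_Q x]
    exact congrArg _ (e.symm.map_app _).symm
  obtain ⟨ρ, h1, h2⟩ := exists_rho h D' hz' hq
  have h3 : Nat.card ρ.range = 25920 := by rw [← index_ker ρ, h1, hi]
  have h4 : ρ.range.index = 2 := by
    have := card_mul_index ρ.range
    rw [h3, card_OG] at this
    omega
  have h5 : ρ.range = Om := by
    have := normal_of_index_eq_two h4
    refine (eq_of_le_of_card_ge ?_ (by rw [h3, card_Om])).symm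
    refine commutator_le.2 fun a _ b _ => ?_
    rw [commutatorElement_def, mul_mem_iff_of_index_two h4, mul_mem_iff_of_index_two h4,
      mul_mem_iff_of_index_two h4, inv_mem_iff, inv_mem_iff]
    tauto
  let χ : G → V := fun a => if ha : a ∈ Q then D'.χ ⟨a, ha⟩ else 0
  have hχ : ∀ a (ha : a ∈ Q), χ a = D'.χ ⟨a, ha⟩ := fun a ha => dif_pos ha
  have act : ∀ g : centralizer ({z} : Set G), Act Q z χ g (ρ g) := fun g => by
    have hg := Inv.mem_centralizer_single.1 g.2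
    exact ⟨hg, fun a ha => by
      rw [hχ _ ha, hχ _ (h.norm g hg a ha)]; exact (h2 g _ _ rfl).symm⟩
  refine ⟨χ, h, fun a ha b hb => ?_, fun a ha => ?_, fun v => ?_, fun a ha => ?_, fun g hg => ?_,
    fun σ hσ => ?_⟩
  · rw [hχ _ ha, hχ _ hb, hχ _ (mul_mem ha hb), ← D'.χ_mul]; rfl
  · rw [hχ _ ha, ← D'.mem_Z, ← hz', ← mem_zpowers_two h.zsq, ← h.center_eq]
    exact ⟨fun e => ⟨_, e, rfl⟩, fun ⟨y, e, e'⟩ => (show y = ⟨a, ha⟩ from Subtype.ext e') ▸ e⟩
  · obtain ⟨a, rfl⟩ := D'.χ_surj v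
    exact ⟨a, a.2, hχ _ _⟩
  · rw [hχ _ ha, ← hq, ← D'.sq_eq_one_iff, pow_two]
    exact ⟨fun e => Subtype.ext e, fun e => congrArg Subtype.val e⟩
  · exact ⟨ρ ⟨g, Inv.mem_centralizer_single.2 hg⟩, h5 ▸ ⟨_, rfl⟩, act ⟨g, _⟩⟩
  · obtain ⟨g, rfl⟩ : σ ∈ ρ.range := h5 ▸ hσ
    exact ⟨g, act g⟩

end Cfsg.Agent.SzI
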