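import Cfsg.Agent.SzI.C

/-! Involutions of `Ω₆⁻(2)` in coordinates. -/

set_option autoImplicit false
set_option linter.unusedSectionVars false
set_option linter.unusedSimpArgs false

namespace Cfsg.Agent.SzI

open Cfsg Subgroup LocalEven Fischer PLocal Orth QuadraticMap Module

def ee : V := Pi.single (.inl (.inl 0)) 1
def p1 : V := Pi.single (.inl (.inl 1)) 1
def p2 : V := Pi.single (.inl (.inr 1)) 1
def w1 : V := Pi.single (.inr 0) 1
def v1 : V := Pi.single (.inr 1) 1

theorem pe (v : V) : polar q ee v = v (.inl (.inr 0)) := by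
  simp [polar_minusQ, Fin.sum_univ_two, ee]
theorem pp1 (v : V) : polar q p1 v = v (.inl (.inr 1)) := by
  simp [polar_minusQ, Fin.sum_univ_two, p1]
theorem pp2 (v : V) : polar q p2 v = v (.inl (.inl 1)) := by
  simp [polar_minusQ, Fin.sum_univ_two, p2]
theorem pw1 (v : V) : polar q w1 v = v (.inr 1) := by
  simp [polar_minusQ, Fin.sum_univ_two, w1, two0]
theorem pv1 (v : V) : polar q v1 v = v (.inr 0) := by
  simp [polar_minusQ, Fin.sum_univ_two, v1, two0]
theorem qee : q ee = 0 := by simp [minusQ_apply, Fin.sum_univ_two, ee]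
theorem qp1 : q p1 = 0 := by simp [minusQ_apply, Fin.sum_univ_two, p1]
theorem qw1 : q w1 = 1 := by simp [minusQ_apply, Fin.sum_univ_two, w1]
theorem qv1 : q v1 = 1 := by simp [minusQ_apply, Fin.sum_univ_two, v1]
theorem qp12 : q (p1 + p2) = 1 := by simp [minusQ_apply, Fin.sum_univ_two, p1, p2]
theorem ee0 : ee ≠ 0 := fun e => by simpa [ee] using congrFun e (.inl (.inl 0))

theorem tab : polar q ee p1 = 0 ∧ polar q ee p2 = 0 ∧ polar q ee w1 = 0 ∧ polar q ee v1 = 0 ∧
    polar q p1 p2 = 1 ∧ polar q p1 w1 = 0 ∧ polar q p1 v1 = 0 ∧ polar q p2 w1 = 0 ∧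
    polar q p2 v1 = 0 ∧ polar q w1 v1 = 1 := by
  simp only [pe, pp1, pp2, pw1]; simp [p1, p2, w1, v1]

theorem decomp {v : V} (h : polar q ee v = 0) : v = v (.inl (.inl 0)) • ee + polar q p2 v • p1 +
    polar q p1 v • p2 + polar q v1 v • w1 + polar q w1 v • v1 := by
  rw [pe] at h
  rw [pp1, pp2, pw1, pv1]
  funext i
  rcases i with (i | i) | i <;> fin_cases i <;> simp [ee, p1, p2, w1, v1, h]

theorem nsp {w : V} (h : w = p1 ∨ w = w1) : w ∉ Submodule.span (ZMod 2) {ee} := fun e => by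
  obtain ⟨c, hc⟩ := Submodule.mem_span_singleton.1 e
  rcases h with rfl | rfl
  · simpa [ee, p1] using congrFun hc (.inl (.inl 1))
  · simpa [ee, w1] using congrFun hc (.inr 0)

theorem d1 {v : V} (h : polar q ee v = 0) (h1 : q v = 0) (h2 : polar q p1 v = 0) :
    v ∈ Submodule.span (ZMod 2) {ee} ∨ v + p1 ∈ Submodule.span (ZMod 2) {ee} := by
  have e := decomp h
  rw [minusQ_apply, Fin.sum_univ_two, ← pe v, ← pp1 v, h, h2] at h1
  obtain ⟨h3, h4⟩ := PGrp.aniso_two (v (.inr 0)) (v (.inr 1)) (by simpa using h1)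
  rw [pv1, pw1, h2, h3, h4] at e
  simp only [zero_smul, add_zero] at e
  rcases z01 (polar q p2 v) with c | c <;> rw [c] at e
  · exact .inl (Submodule.mem_span_singleton.2 ⟨_, by simpa using e.symm⟩)
  · refine .inr (Submodule.mem_span_singleton.2 ⟨v (.inl (.inl 0)), ?_⟩)
    rw [one_smul] at e
    conv_rhs => rw [e, add_assoc, vv, add_zero]

theorem rk2 {σ : OG q} (h : σ ∈ Om) (h1 : σ * σ = 1) (h2 : σ ≠ 1) : rk σ = 2 := by
  obtain ⟨k, hk⟩ := (dk σ).1 h
  have h3 := nd.two_mul_rk_le two0 h1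
  rw [dim] at h3
  have : rk σ ≠ 0 := fun e => h2 (OG.ext fun x => by
    have := sub_mem_mov σ x
    rw [Submodule.finrank_eq_zero.1 e, Submodule.mem_bot, sub_eq_zero] at this
    exact this)
  omega

theorem sing_eich {e w : V} (h0 : e ≠ 0) (he : q e = 0) (hw : polar q e w = 0) :
    Sing q (mov (eich q e w)) ↔ q w = 0 := by
  have key : ∀ v, polar q v ((eich q e w).1 v) = q w * polar q e v * polar q e v := fun v => by
    rw [eich_ap he hw, polar_add_right, polar_add_right, pvv, p_smul_right, p_smul_right,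
      polar_comm q v e, polar_comm q v w]
    generalize q w = a, polar q e v = b, polar q w v = c
    revert a b c; decide
  rw [sing_mov_iff two0]
  simp only [key]
  refine ⟨fun h => ?_, fun h v => by simp [h]⟩
  obtain ⟨y, hy⟩ := nd.exists_polar_one h0
  simpa [hy] using h y

theorem eich_sq {e w : V} (he : q e = 0) (hw : polar q e w = 0) : eich q e w * eich q e w = 1 := by
  rw [eich_mul he hw hw, vv, eich_zero_right]

theorem eich_ne {w : V} (h : w = p1 ∨ w = w1) (hw : polar q ee w = 0) : eich q ee w ≠ 1 := fun e =>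
  nsp h ((Classical.AutO.eich_eq_one_iff nd ee0 qee hw).1 e)

theorem om_cls {σ : OG q} (h : σ ∈ Om) (h1 : σ * σ = 1) (h2 : σ ≠ 1) :
    ∃ τ ∈ Om, ∃ w, (w = p1 ∨ w = w1) ∧ τ * σ * τ⁻¹ = eich q ee w := by
  have key : ∀ w, (w = p1 ∨ w = w1) → polar q ee w = 0 → (Sing q (mov σ) ↔ q w = 0) →
      ∃ τ ∈ Om, ∃ w, (w = p1 ∨ w = w1) ∧ τ * σ * τ⁻¹ = eich q ee w := fun w hw hw' e => by
    obtain ⟨τ, h3, h4⟩ := nd.omega_conj_of_not two0 dk h1 (s := eich q ee w)
      (by rw [rk2 h h1 h2, dim]; simp) ((nd.isConj_iff_char_two two0 h1 (eich_sq qee hw')).2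
        ⟨by rw [rk2 h h1 h2, rk2 (eich_Om _ _) (eich_sq qee hw') (eich_ne hw hw')],
          e.trans (sing_eich ee0 qee hw').symm⟩)
    exact ⟨τ, h3, w, hw, h4⟩
  by_cases hs : Sing q (mov σ)
  · exact key p1 (.inl rfl) tab.1 (iff_of_true hs qp1)
  · exact key w1 (.inr rfl) tab.2.2.1 (iff_of_false hs (by rw [qw1]; decide))

theorem li3 {v : V} (h1 : polar q ee v = 0) (h2 : polar q w1 v = 1) :
    LinearIndependent (ZMod 2) ![ee, w1, v] := by
  rw [Fintype.linearIndependent_iff]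
  intro c hc
  simp only [Fin.sum_univ_three, Matrix.cons_val_zero, Matrix.cons_val_one, Matrix.cons_val] at hc
  have a := congrArg (polar q w1) hc
  have b := congrArg (polar q v) hc
  simp only [polar_add_right, p_smul_right, pvv, polar_comm q w1 ee, tab.2.2.1, h2, polar_zero_right,
    polar_comm q v ee, polar_comm q v w1, h1, mul_zero, mul_one, zero_add, add_zero] at a b
  rw [a, b, zero_smul, zero_smul, add_zero, add_zero] at hc
  have := (smul_eq_zero.1 hc).resolve_right ee0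
  intro i
  fin_cases i <;> assumption

theorem om_tr {v : V} (h1 : polar q ee v = 0) (h2 : polar q w1 v = 1) (h3 : q v = 1) :
    ∃ τ ∈ Om, τ.1 ee = ee ∧ τ.1 w1 = w1 ∧ τ.1 v1 = v := by
  obtain ⟨t1, t2, t3, t4, t5, t6, t7, t8, t9, t10⟩ := tab
  obtain ⟨σ, e⟩ := witt_family nd _ _ (li3 t4 t10) (li3 h1 h2)
    (fun i => by fin_cases i <;> simp [h3, qv1]) fun i j => by
      fin_cases i <;> fin_cases j <;>
        simp [h3, qv1, h1, h2, t4, t10, polar_comm q v ee, polar_comm q v w1, polar_comm q v1 ee,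
          polar_comm q v1 w1]
  obtain ⟨τ, h4, h5⟩ := om_fix σ (v := p1 + p2) (by rw [qp12]; decide)
  exact ⟨τ, h4, (h5 _ (by rw [polar_comm, polar_add_right, t1, t2, add_zero])).trans (e 0),
    (h5 _ (by rw [polar_add_left, t6, t8, add_zero])).trans (e 1),
    (h5 _ (by rw [polar_add_left, t7, t9, add_zero])).trans (e 2)⟩

theorem triv {σ : OG q} (h0 : σ.1 ee = ee) {a b c d : ZMod 2} (h1 : σ.1 p1 = p1 + a • ee)
    (h2 : σ.1 p2 = p2 + b • ee) (h3 : σ.1 w1 = w1 + c • ee) (h4 : σ.1 v1 = v1 + d • ee) :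
    ∃ w, polar q ee w = 0 ∧ σ = eich q ee w := by
  obtain ⟨y, e1, e2⟩ := nd.exists_hyp ee0 qee
  obtain ⟨w, e3, -, e4⟩ := Classical.AutO.eq_eich_of nd qee e2 e1 h0 fun x hx => by
    refine Submodule.mem_span_singleton.2 ⟨polar q p2 x * a + polar q p1 x * b + polar q v1 x * c +
      polar q w1 x * d, ?_⟩
    have e := decomp hx
    generalize x (.inl (.inl 0)) = c0, polar q p2 x = c1, polar q p1 x = c2, polar q v1 x = c3,
      polar q w1 x = c4 at e
    subst e
    simp only [map_add, map_smul, h0, h1, h2, h3, h4]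
    module
  exact ⟨w, e3, e4⟩

theorem orth_key {σ : OG q} (h : σ ∈ Om) (h0 : σ.1 ee = ee) {a b c : ZMod 2}
    (h1 : σ.1 p1 = p1 + a • ee) (h2 : σ.1 p2 = p2 + b • ee) (h3 : σ.1 w1 = w1 + c • ee) :
    ∃ w, polar q ee w = 0 ∧ σ = eich q ee w := by
  obtain ⟨t1, t2, t3, t4, t5, t6, t7, t8, t9, t10⟩ := tab
  have k0 : polar q ee (σ.1 v1) = 0 := by rw [← h0, OG.map_polar, t4]
  have k : ∀ {x : V} {a : ZMod 2}, σ.1 x = x + a • ee → polar q x (σ.1 v1) = polar q x v1 :=
    fun {x a} e => by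
      rw [← OG.map_polar σ x v1, e, polar_add_left, p_smul_left, k0, mul_zero, add_zero]
  have e := decomp k0
  rw [k h1, k h2, k h3, t7, t9, t10] at e
  simp only [zero_smul, add_zero, one_smul] at e
  rcases z01 (polar q v1 (σ.1 v1)) with d | d <;> rw [d] at e
  · exact triv h0 h1 h2 h3 (e.trans (by rw [zero_smul, add_zero, add_comm]))
  · exfalso
    have r : ∀ {x : V} (a : ZMod 2), polar q w1 x = 0 → (refl q w1).1 (x + a • ee) = x + a • ee :=
      fun a e => refl_apply_of_orth (by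
        rw [polar_add_right, p_smul_right, e, polar_comm, t3, mul_zero, add_zero])
    obtain ⟨w, -, e'⟩ := triv (σ := refl q w1 * σ) (d := σ.1 v1 (.inl (.inl 0)))
      (by rw [OG.mul_apply, h0, refl_apply_of_orth (by rw [polar_comm, t3])])
      (by rw [OG.mul_apply, h1, r _ (by rw [polar_comm, t6])])
      (by rw [OG.mul_apply, h2, r _ (by rw [polar_comm, t8])])
      (by rw [OG.mul_apply, h3, r _ (pvv _)]) (by
        generalize σ.1 v1 (.inl (.inl 0)) = d at e
        rw [OG.mul_apply, e, refl_apply, qw1]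
        simp only [polar_add_right, p_smul_right, pvv, polar_comm q w1 ee, t3, t10]
        simp only [mul_zero, zero_add, inv_one, mul_one, one_smul]
        abel)
    have := mul_mem (e' ▸ eich_Om ee w : refl q w1 * σ ∈ Om) (inv_mem h)
    rw [mul_inv_cancel_right] at this
    exact nd.odd_rk_refl (by rw [qw1]; decide) ((dk _).1 this)

end Cfsg.Agent.SzI
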