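import Cfsg.Agent.SzI.D

/-! Groups of Suzuki sporadic type have two classes of involutions. -/

set_option autoImplicit false
set_option linter.unusedSectionVars false

namespace Cfsg.Agent.SzI

open Cfsg Subgroup LocalEven Fischer PLocal Orth QuadraticMap Module

variable {G : Type*} [Group G] [Finite G] {Q R : Subgroup G} {z s : G} {χ : G → V}

theorem exists_cent (h : LS Q z) {x : G} (hx : x * x = 1) : ∃ g, Commute (g * x * g⁻¹) z := by
  have : Fact (Nat.Prime 2) := ⟨Nat.prime_two⟩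
  obtain ⟨S, hS⟩ := h.toES.isPGroup.exists_le_sylow
  have : Nontrivial S := ⟨⟨⟨z, hS h.mem⟩, 1, fun e => h.ne (congrArg Subtype.val e)⟩⟩
  have := S.isPGroup'.center_nontrivial
  obtain ⟨c, hc⟩ := exists_ne (1 : center S)
  have h1 : ∀ y ∈ S, Commute (c.1 : G) y := fun y hy =>
    (congrArg Subtype.val (mem_center_iff.1 c.2 ⟨y, hy⟩)).symm
  have h2 := (h.cent' fun y hy => h1 y (hS hy)).resolve_left fun e => hc (Subtype.ext (Subtype.ext e))
  have h3 : IsPGroup 2 (zpowers x) := fun y => ⟨1, Subtype.ext (by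
    rcases (mem_zpowers_two hx).1 y.2 with e | e <;> simp [e, pow_two, hx])⟩
  obtain ⟨T, hT⟩ := h3.exists_le_sylow
  obtain ⟨g, rfl⟩ := MulAction.exists_smul_eq G T S
  refine ⟨g, (h2 ▸ h1 _ ?_).symm⟩
  exact smul_mem_pointwise_smul _ (MulAut.conj g) _ (hT (mem_zpowers x))

namespace CO
variable (h : CO Q z χ) (p : Pr Q R z s)
include h p

theorem dec {x b : G} {w : V} (hx : x * x = 1) (hb : b ∈ R) (hw : polar q (χ s) w = 0)
    (hw' : w ∉ Submodule.span (ZMod 2) {χ s}) (k : Act Q z χ x (eich q (χ s) w))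
    (k' : Act Q z χ b (eich q (χ s) w)) : ∃ a ∈ Q, x = a * b ∧ polar q (χ s) (χ a) = 0 ∧
      q (χ a) = q w ∧ polar q w (χ a) = q w := by
  have ha := h.diff k k'
  have e : x = x * b⁻¹ * b := by group
  generalize x * b⁻¹ = a at ha e
  subst e
  have h1 : polar q (χ s) (χ a) = 0 := by
    by_contra hn
    have hb2 : InU z s (b * b) := (p.r.sq b hb).elim .inl fun e => .inr (.inr (.inl e))
    obtain ⟨c, e, -⟩ := h.chU p hb2
    have := congrArg χ (show a * (b * a * b⁻¹) * (b * b) = 1 by rw [← hx]; group)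
    rw [h.mul _ (mul_mem ha (h.norm b k'.1 a ha)) _ (hb2.memQ p), h.mul _ ha _ (h.norm b k'.1 a ha),
      k'.2 a ha, eich_ap (h.qe p) hw, ne01.1 hn, e, h.one, one_smul, ← add_assoc, ← add_assoc, vv,
      zero_add, add_right_comm, ← add_smul] at this
    exact hw' (Submodule.mem_span_singleton.2 ⟨_, (eq_neg_of_add_eq_zero_left this).trans (negv w)⟩)
  refine ⟨a, ha, rfl, h1, ?_⟩
  have h2 := h.sq' a ha
  have h3 := h.sq_B p hb hw k'
  have n1 := h.ne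
  have n2 := p.r.ne
  have n3 : z * s ≠ 1 := fun e => p.ne (by rw [eq_inv_of_mul_eq_one_right e, h.toES.zinv])
  rcases h.conj_B p ha ((h.com p.hs ha).2 h1).symm hb hw k' with ⟨c, e⟩ | ⟨c, e⟩
  · rw [mul_assoc, ← mul_assoc b, e, mul_assoc, ← mul_assoc] at hx
    rcases h.sq a ha with u | u <;> rcases p.r.sq b hb with v | v <;> rw [u, v] at hx
    · rw [c, h2.1 u, h3.1 v]; simp
    all_goals simp [*] at hx
  · rw [mul_assoc, ← mul_assoc b, e, show a * (a * (z * s) * b * b) = a * a * z * (s * (b * b)) by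
      group] at hx
    rcases h.sq a ha with u | u <;> rcases p.r.sq b hb with v | v <;> rw [u, v] at hx
    · simp [*] at hx
    · simp [*, p.r.zsq] at hx
    · simp [*, h.zsq] at hx
    · rw [c, ne01.1 fun e => n1 (u ▸ h2.2 e), ne01.1 fun e => n2 (v ▸ h3.2 e)]; simp

theorem conjU {a b u : G} {w : V} (ha : a ∈ Q) (hb : b ∈ R) (hw : polar q (χ s) w = 0)
    (k : Act Q z χ b (eich q (χ s) w)) (h1 : polar q (χ s) (χ a) = 0) (h2 : polar q w (χ a) = 1)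
    (hu : InU z s u) : ∃ g, Commute g z ∧ g * (a * b) * g⁻¹ = a * u * b := by
  obtain ⟨c, hc, rfl⟩ := h.surj w
  have cs := ((h.com p.hs hc).2 hw).symm
  have as := ((h.com p.hs ha).2 h1).symm
  have cz := (h.central c hc).symm
  have az := (h.central a ha).symm
  have e1 : c * a * c⁻¹ = a * z := h.toES.conj_eq hc ha (by rw [h.com hc ha, h2]; decide)
  have e2 : c * b * c⁻¹ = b := by
    rcases h.conj_B p hc cs hb hw k with ⟨-, e⟩ | ⟨e, -⟩
    · rw [← e, mul_inv_cancel_right]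
    · rw [pvv] at e; exact absurd e (by decide)
  have e3 : a * b * a⁻¹ = z * s * b := by
    rcases h.conj_B p ha as hb hw k with ⟨e, -⟩ | ⟨-, e⟩
    · rw [h2] at e; exact absurd e (by decide)
    · rw [(az.mul_right as).eq, mul_assoc] at e
      rw [← inv_mul_eq_iff_eq_mul.2 e, mul_inv_rev, p.r.toES.zinv, h.toES.zinv, p.comm.eq]
      group
  rcases hu with rfl | rfl | rfl | rfl
  · exact ⟨1, Commute.one_left _, by group⟩
  · exact ⟨c, cz, by rw [← e1, ← e2]; rw [e2]; nth_rw 2 [← e2]; group⟩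
  · refine ⟨c * a, cz.mul_left az, ?_⟩
    rw [show c * a * (a * b) * (c * a)⁻¹ = c * a * c⁻¹ * (c * (a * b * a⁻¹) * c⁻¹) by group, e3, e1,
      show c * (z * u * b) * c⁻¹ = c * z * c⁻¹ * (c * u * c⁻¹) * (c * b * c⁻¹) by group, e2,
      Inv.commute_iff_conj.1 cz, Inv.commute_iff_conj.1 cs, mul_assoc a, ← mul_assoc z,
      ← mul_assoc z, h.zsq, one_mul, mul_assoc]
  · exact ⟨a, az, by rw [mul_assoc a (z * s), ← e3]; group⟩

variable (hs : χ s = ee) {g a1 b1 : G} (hg : g * z * g⁻¹ = s) (ha1 : a1 ∈ Q) (hv1 : χ a1 = v1)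
  (hb1 : b1 ∈ R) (k1 : Act Q z χ b1 (eich q ee w1))
include hs hg ha1 hv1 hb1 k1

theorem cls0 {x : G} {w : V} (hw : w = p1 ∨ w = w1) (hx : x * x = 1)
    (k : Act Q z χ x (eich q ee w)) : (∃ m, m * z * m⁻¹ ∈ Q ∧ x ∈ cj m Q) ∨
      ∃ k, Commute k z ∧ k * (a1 * b1) * k⁻¹ = x := by
  have hR := p.tr g hg
  have nw := nsp hw
  rcases hw with rfl | rfl
  · left
    have hw : polar q (χ s) p1 = 0 := hs ▸ tab.1
    obtain ⟨b, hb, k'⟩ := h.exists_B p hw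
    obtain ⟨a, ha, rfl, h1, h2, h3⟩ := h.dec p hx hb hw (hs ▸ nw) (hs ▸ k) k'
    rcases d1 (hs ▸ h1) (h2.trans qp1) (h3.trans qp1) with e | e
    · exact ⟨g, hg ▸ p.hs, hR ▸ mul_mem ((h.inU_of p ha (hs ▸ e)).memR p) hb⟩
    · obtain ⟨y, hy, e1⟩ := h.toES.exists_not_commute p.hs p.r.ne p.ne
      obtain ⟨c, e2⟩ := h.ch_y p hy (fun e => e1 e.symm) hw k'
      have h4 := h.norm y (h.central y hy).symm a ha
      have h5 := mul_mem hy (h.norm b k'.1 _ (inv_mem hy))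
      have h6 := (h.inU_of p (mul_mem h4 h5) (by
        rw [h.mul _ h4 _ h5, e2, (h.act_one.2 hy).2 a ha, OG.one_apply, ← add_assoc]
        exact add_mem (hs ▸ e) (Submodule.smul_mem _ _ (Submodule.mem_span_singleton_self _)))).memR p
      refine ⟨y⁻¹ * g, ?_, ?_⟩
      · rw [show y⁻¹ * g * z * (y⁻¹ * g)⁻¹ = y⁻¹ * (g * z * g⁻¹) * y by group, hg]
        exact mul_mem (mul_mem (inv_mem hy) p.hs) hy
      · rw [cj_mul, hR, mem_cj_inv]
        have := mul_mem h6 hb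
        rwa [show y * a * y⁻¹ * (y * (b * y⁻¹ * b⁻¹)) * b = y * (a * b) * y⁻¹ by group] at this
  · right
    have hw : polar q (χ s) w1 = 0 := hs ▸ tab.2.2.1
    obtain ⟨a, ha, rfl, h1, h2, h3⟩ := h.dec p hx hb1 hw (hs ▸ nw) (hs ▸ k) (hs ▸ k1)
    obtain ⟨τ, t0, t1, t2, t3⟩ := om_tr (hs ▸ h1) (h3.trans qw1) (h2.trans qw1)
    obtain ⟨m, km, e⟩ := h.lift_to t0 p.hs p.hs p.r.ne p.ne (by rw [hs, t1])
    have h4 := km.conj h.toLS k1
    rw [eich_conj, t1, t2] at h4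
    have h5 := h.inf p (h.diff h4 k1)
      (mul_mem (p.r.norm m (Inv.commute_iff_conj.2 e) b1 hb1) (inv_mem hb1))
    have h6 := h.norm m km.1 a1 ha1
    obtain ⟨c, h7, -⟩ := h.chU p h5
    have h8 := mul_mem (mul_mem (inv_mem ha) h6) (h5.memQ p)
    obtain ⟨n, h9, h10⟩ := h.conjU p ha hb1 hw (hs ▸ k1) h1 (h3.trans qw1) (h.inU_of p h8 (by
      rw [h.mul _ (mul_mem (inv_mem ha) h6) _ (h5.memQ p), h.mul _ (inv_mem ha) _ h6, h.inv ha,
        km.2 a1 ha1, hv1, t3, vv, zero_add, h7]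
      exact Submodule.smul_mem _ _ (Submodule.mem_span_singleton_self _)))
    refine ⟨n⁻¹ * m, h9.inv_left.mul_left km.1, ?_⟩
    rw [show a * (a⁻¹ * (m * a1 * m⁻¹) * (m * b1 * m⁻¹ * b1⁻¹)) * b1 = m * (a1 * b1) * m⁻¹ by group]
      at h10
    rw [show n⁻¹ * m * (a1 * b1) * (n⁻¹ * m)⁻¹ = n⁻¹ * (m * (a1 * b1) * m⁻¹) * n by group, ← h10]
    group

theorem cls {x : G} (hz : Commute x z) (hx : x * x = 1) :
    (∃ m, m * z * m⁻¹ ∈ Q ∧ x ∈ cj m Q) ∨ ∃ k, Commute k z ∧ k * (a1 * b1) * k⁻¹ = x := by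
  obtain ⟨σ, h1, k⟩ := h.ex x hz
  by_cases h2 : σ = 1
  · exact .inl ⟨1, by simpa using h.mem, by rw [cj_one]; exact h.act_one.1 (h2 ▸ k)⟩
  obtain ⟨τ, h3, w, hw, e⟩ := om_cls h1
    (h.uniq (k.mul h.toLS k) (hx ▸ h.act_one.2 (one_mem _))) h2
  obtain ⟨n, kn⟩ := h.lift τ h3
  rcases h.cls0 p hs hg ha1 hv1 hb1 k1 hw (x := n * x * n⁻¹) (by simp [mul_assoc, ← mul_assoc x, hx])
    (e ▸ kn.conj h.toLS k) with ⟨m, h4, h5⟩ | ⟨m, h4, h5⟩
  · refine .inl ⟨n⁻¹ * m, ?_, by rwa [cj_mul, mem_cj_inv]⟩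
    have := h.norm n⁻¹ kn.1.inv_left _ h4
    rwa [show n⁻¹ * (m * z * m⁻¹) * n⁻¹⁻¹ = n⁻¹ * m * z * (n⁻¹ * m)⁻¹ by group] at this
  · refine .inr ⟨n⁻¹ * m, kn.1.inv_left.mul_left h4, ?_⟩
    rw [show n⁻¹ * m * (a1 * b1) * (n⁻¹ * m)⁻¹ = n⁻¹ * (m * (a1 * b1) * m⁻¹) * n by group, h5]
    group

end CO

end Cfsg.Agent.SzI
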